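import Cfsg.Agent.OD.Pre
import Cfsg.Agent.H6.TCTop
import Cfsg.Agent.H6.F24T2.C
set_option autoImplicit false
set_option maxRecDepth 100000
set_option Elab.async false
set_option linter.all false
namespace CfH6.F24T2
open CfH6
theorem p0 : C.OkL 256 2176 := C.okL_of 256 15 0 2176 (by decide) (by decide +kernel)
theorem p1 : C.OkL 2176 3968 := C.okL_of 2176 14 0 3968 (by decide) (by decide +kernel)
theorem p2 : C.OkL 3968 5632 := C.okL_of 3968 13 0 5632 (by decide) (by decide +kernel)
theorem p3 : C.OkL 5632 7424 := C.okL_of 5632 14 0 7424 (by decide) (by decide +kernel)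
theorem p4 : C.OkL 7424 9088 := C.okL_of 7424 13 0 9088 (by decide) (by decide +kernel)
theorem p5 : C.OkL 9088 10752 := C.okL_of 9088 13 0 10752 (by decide) (by decide +kernel)
theorem p6 : C.OkL 10752 12416 := C.okL_of 10752 13 0 12416 (by decide) (by decide +kernel)
theorem p7 : C.OkL 12416 14208 := C.okL_of 12416 14 0 14208 (by decide) (by decide +kernel)
theorem p8 : C.OkL 14208 16000 := C.okL_of 14208 14 0 16000 (by decide) (by decide +kernel)
theorem p9 : C.OkL 16000 17920 := C.okL_of 16000 15 0 17920 (by decide) (by decide +kernel)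
theorem p10 : C.OkL 17920 19840 := C.okL_of 17920 15 0 19840 (by decide) (by decide +kernel)
theorem p11 : C.OkL 19840 21760 := C.okL_of 19840 15 0 21760 (by decide) (by decide +kernel)
theorem p12 : C.OkL 21760 23680 := C.okL_of 21760 15 0 23680 (by decide) (by decide +kernel)
theorem p13 : C.OkL 23680 25600 := C.okL_of 23680 15 0 25600 (by decide) (by decide +kernel)
theorem p14 : C.OkL 25600 27520 := C.okL_of 25600 15 0 27520 (by decide) (by decide +kernel)
theorem p15 : C.OkL 27520 29440 := C.okL_of 27520 15 0 29440 (by decide) (by decide +kernel)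
theorem p16 : C.OkL 29440 31360 := C.okL_of 29440 15 0 31360 (by decide) (by decide +kernel)
theorem p17 : C.OkL 31360 31927 := C.okL_of 31360 4 55 31927 (by decide) (by decide +kernel)
theorem p18 : C.OkR 31927 34359 := C.okR_of 31927 19 0 34359 (by decide) (by decide +kernel)
theorem p19 : C.OkR 34359 36791 := C.okR_of 34359 19 0 36791 (by decide) (by decide +kernel)
theorem p20 : C.OkR 36791 39095 := C.okR_of 36791 18 0 39095 (by decide) (by decide +kernel)
end CfH6.F24T2
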