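import Cfsg.Agent.OD.Pre
import Cfsg.Agent.H6.TCTop
import Cfsg.Agent.H6.F24T2.C
set_option autoImplicit false
set_option maxRecDepth 100000
set_option Elab.async false
set_option linter.all false
namespace CfH6.F24T2
open CfH6
theorem p21 : C.OkR 39095 41527 := C.okR_of 39095 19 0 41527 (by decide) (by decide +kernel)
theorem p22 : C.OkR 41527 42205 := C.okR_of 41527 5 38 42205 (by decide) (by decide +kernel)
end CfH6.F24T2
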